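/-
The Weyl group of a (B,N)-pair is a Coxeter group.
-/
import Cfsg.Agent.Lib.BN.Parabolic
import Cfsg.Agent.Lib.BN.CoxAbstract

set_option autoImplicit false

namespace Cfsg.Agent.Lib.BN

open Cfsg Cox

variable {G : Type*} [Group G] {P : BNPair G}

theorem exists_split_of_sublist {α : Type*} {l' l : List α} (h : l'.Sublist l)
    (hlen : l'.length + 1 = l.length) : ∃ a x b, l = a ++ x :: b ∧ l' = a ++ b := by
  induction h with
  | slnil => simp at hlen
  | @cons l₁ l₂ x h ih =>
    exact ⟨[], x, l₂, rfl, (h.eq_of_length (by simpa using hlen))⟩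
  | @cons_cons l₁ l₂ x h ih =>
    obtain ⟨a, y, b, rfl, rfl⟩ := ih (by simpa using hlen)
    exact ⟨x :: a, y, b, rfl, rfl⟩

variable (P) in
/-- The word in `G` of a list of distinguished generators. -/
def wordG (l : List P.S) : G := (l.map Subtype.val).prod

@[simp] theorem wordG_nil : wordG P [] = 1 := rfl
@[simp] theorem wordG_cons (s : P.S) (l : List P.S) : wordG P (s :: l) = s * wordG P l := by
  simp [wordG]
@[simp] theorem wordG_append (a b : List P.S) : wordG P (a ++ b) = wordG P a * wordG P b := by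
  simp [wordG]

theorem wordG_mem_N (l : List P.S) : wordG P l ∈ P.N :=
  word_prod_mem_N (by
    intro s hs
    obtain ⟨x, -, rfl⟩ := List.mem_map.1 hs
    exact x.2)

theorem rep_wordG (l : List P.S) : Rep P (l.map Subtype.val) (wordG P l) :=
  rep_self (by
    intro s hs
    obtain ⟨x, -, rfl⟩ := List.mem_map.1 hs
    exact x.2)

theorem exists_lift_word {l : List G} (hl : ∀ s ∈ l, s ∈ P.S) :
    ∃ l' : List P.S, l'.map Subtype.val = l := by
  refine ⟨l.attachWith _ hl, ?_⟩
  simp

section Quot

variable [hN : ((P.B ⊓ P.N).subgroupOf P.N).Normal]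

variable (P) in
/-- The generator of the Weyl group attached to `s`. -/
def weylGen (s : P.S) : P.N ⧸ (P.B ⊓ P.N).subgroupOf P.N :=
  QuotientGroup.mk (⟨s, P.subset s.2⟩ : P.N)

omit hN in
theorem mk_eq_iff {x y : P.N} :
    (QuotientGroup.mk x : P.N ⧸ (P.B ⊓ P.N).subgroupOf P.N) = QuotientGroup.mk y ↔
      (x : G)⁻¹ * y ∈ P.B := by
  rw [QuotientGroup.eq, Subgroup.mem_subgroupOf]
  constructor
  · intro h
    exact h.1
  · intro h
    exact ⟨h, (x⁻¹ * y).2⟩

theorem val_weylGen (l : List P.S) :
    val (weylGen P) l = QuotientGroup.mk (⟨wordG P l, wordG_mem_N l⟩ : P.N) := by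
  induction l with
  | nil => rfl
  | cons s l ih =>
    rw [val_cons, ih]
    rfl

theorem val_weylGen_eq_iff {l l' : List P.S} :
    val (weylGen P) l = val (weylGen P) l' ↔ (wordG P l)⁻¹ * wordG P l' ∈ P.B := by
  rw [val_weylGen, val_weylGen, mk_eq_iff]

theorem reduced_iff (l : List P.S) : Reduced (weylGen P) l ↔ l.length = len P (wordG P l) := by
  constructor
  · intro h
    obtain ⟨l₀, hr, hlen⟩ := len_spec (wordG_mem_N l)
    obtain ⟨l₁, rfl⟩ := exists_lift_word hr.1
    simp only [List.length_map] at hlen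
    have h1 : l.length ≤ l₁.length := h l₁ (by
      rw [val_weylGen_eq_iff]
      exact hr.2)
    have h3 := len_le (rep_wordG l)
    simp only [List.length_map] at h3
    omega
  · intro h l' hl'
    rw [h]
    have h2 : Rep P (l'.map Subtype.val) (wordG P l) := by
      refine ⟨(rep_wordG l').1, ?_⟩
      have := (val_weylGen_eq_iff.1 hl')
      simpa [wordG] using this
    have := len_le h2
    simpa using this

theorem weylGen_inv (s : P.S) : weylGen P s * weylGen P s = 1 := by
  have : weylGen P s * weylGen P s = QuotientGroup.mk (⟨(s : G) * s, sq_mem_N s.2⟩ : P.N) := rfl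
  rw [this]
  apply (QuotientGroup.eq_one_iff _).2
  rw [Subgroup.mem_subgroupOf]
  exact ⟨P.sq_mem s s.2, sq_mem_N s.2⟩

theorem weylGen_inj : Function.Injective (weylGen P) := by
  intro s s' h
  have := mk_eq_iff.1 h
  exact Subtype.ext (P.inj s s.2 s' s'.2 this)

theorem weylGen_generates (w : P.N ⧸ (P.B ⊓ P.N).subgroupOf P.N) :
    ∃ l, val (weylGen P) l = w := by
  obtain ⟨n, rfl⟩ := QuotientGroup.mk_surjective w
  obtain ⟨l, hl⟩ := exists_rep n.2
  obtain ⟨l', rfl⟩ := exists_lift_word hl.1
  refine ⟨l', ?_⟩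
  rw [val_weylGen, mk_eq_iff]
  exact hl.2

theorem weylGen_exchange : Exchange (weylGen P) := by
  intro l i hl hi
  rw [reduced_iff] at hl hi
  have hnN := wordG_mem_N l
  simp only [List.length_cons, wordG_cons] at hi
  have hlt : len P ((i : G) * wordG P l) < len P (wordG P l) := by
    rcases len_S_mul_eq i.2 hnN with h | h
    · exfalso
      apply hi
      omega
    · omega
  obtain ⟨l₂, hsub, hlen, hrep⟩ := exchange i.2 (l.map Subtype.val)
    (by
      intro s hs
      obtain ⟨x, -, rfl⟩ := List.mem_map.1 hs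
      exact x.2)
    (by simpa [wordG] using hl)
    (by simpa [wordG] using hlt)
  obtain ⟨l₃, hl₃, rfl⟩ := List.sublist_map_iff.1 hsub
  obtain ⟨a, x, b, rfl, rfl⟩ := exists_split_of_sublist hl₃ (by simpa using hlen)
  refine ⟨a, x, b, rfl, ?_⟩
  rw [val_weylGen_eq_iff]
  have h2 := P.B.inv_mem hrep.2
  simpa [wordG] using h2

/-- The Weyl group of a (B,N)-pair is a Coxeter group, with the orders of products of generators
as Coxeter matrix. -/
theorem exists_coxeterSystem_weyl :
    ∃ cs : CoxeterSystem (orderMatrix (weylGen_inv (P := P)) weylGen_inj) (P.N ⧸ (P.B ⊓ P.N).subgroupOf P.N),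
      ∀ s : P.S, cs.simple s = QuotientGroup.mk (⟨(s : G), P.subset s.2⟩ : P.N) :=
  exists_coxeterSystem weylGen_inv weylGen_exchange weylGen_inj weylGen_generates

end Quot

end Cfsg.Agent.Lib.BN
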